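import Cfsg.Agent.H847.Bs.Stmts
import Cfsg.Agent.H181.Bs.SpRed
import Cfsg.Agent.H59.Bs.SpMinus

/-!
# S5733, S25 and S28s from S10 (helper24)

`H181.Bs.sp_red` (helper181) covers totally isotropic and nondegenerate subspaces; the block counts are `H59.Bs.sp_minus`.
-/

set_option autoImplicit false

namespace Cfsg.Agent.H24.Bs

open Cfsg.Agent.H847.Bs Module

theorem sp_red (h10 : S10) : ∃ c : ℝ, 0 < c ∧ ∃ n₀ : ℕ, ∀ (F V : Type) [Field F] [Finite F] [AddCommGroup V]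
    [Module F V] [Module.Finite F V] (Φ : Frm F V), IsSp Φ → n₀ ≤ finrank F V → ∀ Y₀ : Submodule F V, Y₀ ≠ ⊥ → Y₀ ≠ ⊤ →
    (Φ.TI Y₀ ∨ Φ.NdOn Y₀) → c * (Nat.card Φ.Iso : ℝ) ≤ noInv Φ.Iso Y₀ := by
  refine H181.Bs.sp_red.{0, 0} ?_ ?_
  · intro F V _ _ _ _ _ Φ hΦ j hj hd
    exact H59.Bs.sp_minus hΦ hj hd
  · obtain ⟨c, hc, K₀, h⟩ := h10
    exact ⟨c, hc, K₀, fun F V _ _ _ _ _ Φ hΦ n K hK hn hKn => h F V Φ n K hΦ hK hn hKn⟩

/-- **S25** -/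
theorem s25 (h10 : S10) : S25 := by
  obtain ⟨c, hc, n₀, h⟩ := sp_red h10
  refine ⟨c, hc, n₀ + 1, fun F V _ _ _ _ _ Φ hΦ hn Y hY hTI => ?_⟩
  refine h F V Φ hΦ (by omega) Y hY ?_ (Or.inl hTI)
  -- the whole space is not totally isotropic
  rintro rfl
  have h0 : finrank F V = 0 := by
    have hs : Subsingleton V := ⟨fun x y => by
      rw [hΦ.nd x fun z => hTI.1 x trivial z trivial, hΦ.nd y fun z => hTI.1 y trivial z trivial]⟩
    exact finrank_zero_of_subsingleton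
  omega

/-- **S28s** -/
theorem s28s (h10 : S10) : S28s := by
  obtain ⟨c, hc, n₀, h⟩ := sp_red h10
  exact ⟨c, hc, n₀, fun F V _ _ _ _ _ Φ hΦ hn Y hY hY1 hnd => h F V Φ hΦ hn Y hY hY1 (Or.inr hnd)⟩

end Cfsg.Agent.H24.Bs
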